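import Cfsg.Agent.Lib.H16.CE.S1683.T0

set_option autoImplicit false
set_option maxRecDepth 1000000

namespace Cfsg.Agent.H16.CE.S1683
open Cfsg.Agent.H16.CosetEnum
open Cfsg.Agent.H16.Enum (walk)

noncomputable section

theorem hb0 : bfsOK tt hwL 2058 135 (2 ^ 46) S0 = some V0 := by decide +kernel
theorem hc0' : closedOK tt hwL 2058 V0 = true := by decide +kernel
theorem hm0 : ((List.range 2058).filter (fun i => V0.testBit i)).length = 136 := by decide +kernel
theorem hb1 : bfsOK tt hwL 2058 135 (2 ^ 65) S1 = some V1 := by decide +kernel
theorem hc1' : closedOK tt hwL 2058 V1 = true := by decide +kernel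
theorem hm1 : ((List.range 2058).filter (fun i => V1.testBit i)).length = 136 := by decide +kernel
theorem hb2 : bfsOK tt hwL 2058 424 (2 ^ 2) S2 = some V2 := by decide +kernel
theorem hc2' : closedOK tt hwL 2058 V2 = true := by decide +kernel
theorem hm2 : ((List.range 2058).filter (fun i => V2.testBit i)).length = 425 := by decide +kernel
theorem hb3 : bfsOK tt hwL 2058 1359 (2 ^ 1) S3 = some V3 := by decide +kernel
theorem hc3' : closedOK tt hwL 2058 V3 = true := by decide +kernel
theorem hm3 : ((List.range 2058).filter (fun i => V3.testBit i)).length = 1360 := by decide +kernel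

end

end Cfsg.Agent.H16.CE.S1683
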